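import Cfsg.Agent.H6.Exist
import Cfsg.Agent.H6.FieldEquiv
import Cfsg.Agent.H1.PSLSimple
import Cfsg.Agent.H36.PrimeDegree

/-!
# The alternating subgroups of degree five of `PSL₂(11)`

They are counted through their presentations: each gives 120 pairs `(x, y)` with
`x⁵ = y² = (xy)³ = 1`, and the whole group has 2640 such pairs.
-/

open Matrix MatrixGroups
open scoped Pointwise

namespace Cfsg.Agent.H63.PSLEleven

open Cfsg.Agent.H6

/-- Generating pairs of icosahedral type. -/
def Tri {G : Type*} [Group G] (p : G × G) : Prop :=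
  (p.1 ^ 5 = 1 ∧ p.1 ≠ 1) ∧ p.2 ^ 2 = 1 ∧ (p.1 * p.2) ^ 3 = 1

theorem tri_map {G H : Type*} [Group G] [Group H] (f : G →* H) (hf : Function.Injective f) (p : G × G) :
    Tri (f p.1, f p.2) ↔ Tri p := by
  simp only [Tri, ← map_pow, ← map_mul, ne_eq, map_eq_one_iff f hf]

theorem card_tri_congr {G H : Type*} [Group G] [Group H] (e : G ≃* H) :
    Nat.card {p : G × G // Tri p} = Nat.card {p : H × H // Tri p} :=
  Nat.card_congr ((e.toEquiv.prodCongr e.toEquiv).subtypeEquiv fun p =>
    (tri_map e.toMonoidHom e.injective p).symm)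

theorem card_tri_eq_sum {G : Type*} [Group G] [Fintype G] [DecidableEq G] :
    Nat.card {p : G × G // Tri p} =
      (Finset.univ.filter fun x : G => x ^ 5 = 1 ∧ x ≠ 1).sum
        fun x => ((Finset.univ.filter fun y : G => y ^ 2 = 1).filter fun y => (x * y) ^ 3 = 1).card := by
  classical
  rw [← Finset.card_sigma, Nat.card_eq_fintype_card, Fintype.card_subtype]
  refine Finset.card_bij (fun p _ => ⟨p.1, p.2⟩) (fun p hp => ?_) (fun p _ q _ h => ?_) fun s hs => ?_
  · obtain ⟨⟨h1, h2⟩, h3, h4⟩ := (Finset.mem_filter.1 hp).2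
    simp [h1, h2, h3, h4]
  · exact Prod.ext (congrArg Sigma.fst h) (eq_of_heq (Sigma.mk.inj_iff.1 h).2)
  · simp only [Finset.mem_sigma, Finset.mem_filter, Finset.mem_univ, true_and] at hs
    exact ⟨(s.1, s.2), Finset.mem_filter.2 ⟨Finset.mem_univ _, hs.1, hs.2⟩, rfl⟩

theorem card_tri_alt : Nat.card {p : alternatingGroup (Fin 5) × alternatingGroup (Fin 5) // Tri p} = 120 := by
  rw [card_tri_eq_sum]
  decide +kernel

/-- Quadruples of residues. -/
abbrev Quad := ZMod 11 × ZMod 11 × ZMod 11 × ZMod 11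

/-- Product of quadruples as matrices. -/
def qmul (x y : Quad) : Quad :=
  (x.1 * y.1 + x.2.1 * y.2.2.1, x.1 * y.2.1 + x.2.1 * y.2.2.2,
   x.2.2.1 * y.1 + x.2.2.2 * y.2.2.1, x.2.2.1 * y.2.1 + x.2.2.2 * y.2.2.2)

/-- Negation of a quadruple. -/
def qneg (x : Quad) : Quad := (-x.1, -x.2.1, -x.2.2.1, -x.2.2.2)

/-- Being plus or minus the identity. -/
def isUnit' (x : Quad) : Bool := x = (1, 0, 0, 1) || x = (10, 0, 0, 10)

/-- The normalisation selecting one of two opposite quadruples. -/
def canon (x : Quad) : Bool :=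
  if x.1 = 0 then (decide (1 ≤ x.2.1.val) && decide (x.2.1.val ≤ 5)) else decide (x.1.val ≤ 5)

/-- Representatives for the elements of `PSL₂(11)`. -/
def reps : Finset Quad :=
  Finset.univ.filter fun x => x.1 * x.2.2.2 - x.2.1 * x.2.2.1 = 1 ∧ canon x = true

/-- The condition on the first generator. -/
def c5 (x : Quad) : Bool := !isUnit' x && isUnit' (qmul (qmul (qmul x x) (qmul x x)) x)

/-- The condition on the second generator. -/
def c2 (x : Quad) : Bool := isUnit' (qmul x x)

/-- The condition on the product. -/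
def c3 (x y : Quad) : Bool :=
  let z := qmul x y
  isUnit' (qmul (qmul z z) z)

theorem card_reps : reps.card = 660 := by decide +kernel

theorem canon_qneg : ∀ x ∈ reps, canon (qneg x) = false := by
  have key : ∀ a : ZMod 11, a ≠ 0 → a.val ≤ 5 → -a ≠ 0 ∧ ¬ (-a).val ≤ 5 := by decide +kernel
  intro x hx
  have h := (Finset.mem_filter.1 hx).2.2
  by_cases h0 : x.1 = 0
  · simp only [canon, qneg, h0, neg_zero, if_true, Bool.and_eq_true, decide_eq_true_eq] at h ⊢
    have hne : x.2.1 ≠ 0 := fun e => by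
      rw [e, ZMod.val_zero] at h
      omega
    simp [(key _ hne h.2).2]
  · simp only [canon, qneg, h0, if_false, decide_eq_true_eq] at h ⊢
    simp [(key _ h0 h).1, (key _ h0 h).2]

theorem count_reps : ((reps.filter fun x => c5 x = true).sum fun x =>
    ((reps.filter fun y => c2 y = true).filter fun y => c3 x y = true).card) = 2640 := by
  decide +kernel

theorem det_of_mem (x : Quad) (hx : x ∈ reps) : x.1 * x.2.2.2 - x.2.1 * x.2.2.1 = 1 := by
  rw [reps, Finset.mem_filter] at hx
  exact hx.2.1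

theorem canon_of_mem (x : Quad) (hx : x ∈ reps) : canon x = true := by
  rw [reps, Finset.mem_filter] at hx
  exact hx.2.2

attribute [local irreducible] reps

instance factPrimeEleven : Fact (Nat.Prime 11) := ⟨by norm_num⟩

/-- The quadruple of a matrix. -/
def quadOf (g : SL(2, ZMod 11)) : Quad := (g 0 0, g 0 1, g 1 0, g 1 1)

theorem quadOf_mul (g h : SL(2, ZMod 11)) : quadOf (g * h) = qmul (quadOf g) (quadOf h) := by
  simp only [quadOf, qmul, sl2_mul]

theorem quadOf_injective : Function.Injective quadOf := by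
  intro g h e
  exact sl2_ext (congrArg (fun q : Quad => q.1) e) (congrArg (fun q : Quad => q.2.1) e)
    (congrArg (fun q : Quad => q.2.2.1) e) (congrArg (fun q : Quad => q.2.2.2) e)

theorem quadOf_neg (g : SL(2, ZMod 11)) : quadOf (-g) = qneg (quadOf g) := by
  simp only [quadOf, qneg, sl2_neg]

theorem π_eq_one_quad (g : SL(2, ZMod 11)) : π g = 1 ↔ isUnit' (quadOf g) = true := by
  rw [π_eq_one_iff]
  rw [isUnit', Bool.or_eq_true, decide_eq_true_iff, decide_eq_true_iff]
  have h1 : quadOf 1 = (1, 0, 0, 1) := rfl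
  have h2 : qneg ((1, 0, 0, 1) : Quad) = (10, 0, 0, 10) := rfl
  constructor
  · rintro (rfl | rfl)
    · exact Or.inl h1
    · exact Or.inr (by rw [quadOf_neg, h1, h2])
  · rintro (h | h)
    · exact Or.inl (quadOf_injective (h.trans h1.symm))
    · exact Or.inr (quadOf_injective (h.trans (by rw [quadOf_neg, h1, h2])))

/-- The element of `PSL₂(11)` given by a representative. -/
def elem (x : {x // x ∈ reps}) : PSL(2, ZMod 11) :=
  π (sl2 x.1.1 x.1.2.1 x.1.2.2.1 x.1.2.2.2 (det_of_mem x.1 x.2))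

theorem card_psl_eleven {F : Type*} [Field F] [Fintype F] (hF : Fintype.card F = 11) :
    Nat.card PSL(2, F) = 660 := by
  rw [card_psl2 hF]
  norm_num

theorem elem_bijective : Function.Bijective elem := by
  haveI := Fintype.ofFinite PSL(2, ZMod 11)
  rw [Fintype.bijective_iff_injective_and_card]
  refine ⟨fun x y e => Subtype.ext ?_, ?_⟩
  · rcases π_eq_iff.1 e with h | h
    · exact congrArg quadOf h
    · have hq : x.1 = qneg y.1 := (congrArg quadOf h).trans (quadOf_neg _)
      have h1 := canon_of_mem x.1 x.2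
      rw [hq, canon_qneg y.1 y.2] at h1
      exact absurd h1 Bool.false_ne_true
  · rw [Fintype.card_coe, card_reps, ← Nat.card_eq_fintype_card, card_psl_eleven (ZMod.card 11)]

theorem card_tri_psl : Nat.card {p : PSL(2, ZMod 11) × PSL(2, ZMod 11) // Tri p} = 2640 := by
  classical
  let e : {x // x ∈ reps} ≃ PSL(2, ZMod 11) := Equiv.ofBijective elem elem_bijective
  have hcond : ∀ x y : {x // x ∈ reps}, Tri (e x, e y) ↔ (c5 x.1 = true ∧ c2 y.1 = true ∧ c3 x.1 y.1 = true) := by
    intro x y
    show Tri (π _, π _) ↔ _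
    simp only [Tri, pow_succ, pow_zero, one_mul, ← map_mul, ne_eq, π_eq_one_quad, quadOf_mul]
    simp only [c5, c2, c3, Bool.and_eq_true, Bool.not_eq_true', Bool.not_eq_true]
    have hx : quadOf (sl2 x.1.1 x.1.2.1 x.1.2.2.1 x.1.2.2.2 (det_of_mem x.1 x.2)) = x.1 := rfl
    have hy : quadOf (sl2 y.1.1 y.1.2.1 y.1.2.2.1 y.1.2.2.2 (det_of_mem y.1 y.2)) = y.1 := rfl
    rw [hx, hy]
    have assoc : ∀ a : Quad, qmul (qmul (qmul (qmul a a) a) a) a = qmul (qmul (qmul a a) (qmul a a)) a := by
      intro a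
      simp only [qmul, Prod.mk.injEq]
      refine ⟨?_, ?_, ?_, ?_⟩ <;> ring
    rw [assoc]
    exact ⟨fun h => ⟨⟨h.1.2, h.1.1⟩, h.2⟩, fun h => ⟨⟨h.1.2, h.1.1⟩, h.2⟩⟩
  have hq : Nat.card {q : {x // x ∈ reps} × {x // x ∈ reps} // c5 q.1.1 = true ∧ c2 q.2.1 = true ∧
      c3 q.1.1 q.2.1 = true} = ((reps.filter fun x => c5 x = true).sigma fun x =>
        (reps.filter fun y => c2 y = true).filter fun y => c3 x y = true).card := by
    rw [← Nat.card_eq_finsetCard]
    refine Nat.card_congr
      { toFun := fun q => ⟨⟨q.1.1.1, q.1.2.1⟩, by simp [q.1.1.2, q.1.2.2, q.2.1, q.2.2.1, q.2.2.2]⟩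
        invFun := fun s => ⟨(⟨s.1.1, (Finset.mem_filter.1 (Finset.mem_sigma.1 s.2).1).1⟩,
            ⟨s.1.2, (Finset.mem_filter.1 (Finset.mem_filter.1 (Finset.mem_sigma.1 s.2).2).1).1⟩),
          (Finset.mem_filter.1 (Finset.mem_sigma.1 s.2).1).2,
          (Finset.mem_filter.1 (Finset.mem_filter.1 (Finset.mem_sigma.1 s.2).2).1).2,
          (Finset.mem_filter.1 (Finset.mem_sigma.1 s.2).2).2⟩
        left_inv := fun q => rfl
        right_inv := fun s => rfl }
  rw [Finset.card_sigma] at hq
  have hb : {q : {x // x ∈ reps} × {x // x ∈ reps} // c5 q.1.1 = true ∧ c2 q.2.1 = true ∧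
      c3 q.1.1 q.2.1 = true} ≃ {p : PSL(2, ZMod 11) × PSL(2, ZMod 11) // Tri p} :=
    (e.prodCongr e).subtypeEquiv fun q => (hcond q.1 q.2).symm
  exact (Nat.card_congr hb).symm.trans (hq.trans count_reps)

variable {F : Type*} [Field F] [Fintype F] (hF : Fintype.card F = 11)

include hF in
theorem card_tri : Nat.card {p : PSL(2, F) × PSL(2, F) // Tri p} = 2640 := by
  rw [← card_tri_psl, card_tri_congr (pslEquiv (ZMod.ringEquivOfPrime F (by norm_num) hF))]

include hF in
theorem isSimple : IsSimpleGroup PSL(2, F) := by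
  refine H1.isSimpleGroup_PSL (Or.inr ?_)
  obtain ⟨e⟩ : Nonempty (ZMod 11 ≃+* F) := ⟨ZMod.ringEquivOfPrime F (by norm_num) hF⟩
  refine ⟨e 2, (map_ne_zero e).2 (by decide), fun h => ?_⟩
  rw [← map_pow, ← map_one e] at h
  exact absurd (e.injective h) (by decide)

theorem card_alt_five : Nat.card (alternatingGroup (Fin 5)) = 60 := by
  rw [nat_card_alternatingGroup, Nat.card_fin]
  rfl

include hF in
theorem index_eq {H : Subgroup PSL(2, F)} (h : Nonempty (H ≃* alternatingGroup (Fin 5))) : H.index = 11 := by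
  obtain ⟨e⟩ := h
  have h1 := H.card_mul_index
  rw [Nat.card_congr e.toEquiv, card_alt_five, card_psl_eleven hF] at h1
  omega

include hF in
theorem normalizer_eq {H : Subgroup PSL(2, F)} (h : Nonempty (H ≃* alternatingGroup (Fin 5))) :
    Subgroup.normalizer (H : Set PSL(2, F)) = H := by
  haveI := isSimple hF
  have hi := index_eq hF h
  have hd : (Subgroup.normalizer (H : Set PSL(2, F))).index ∣ 11 := hi ▸ Subgroup.index_dvd_of_le Subgroup.le_normalizer
  rcases (Nat.dvd_prime (by norm_num)).1 hd with h1 | h1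
  · exfalso
    haveI : H.Normal := Subgroup.normalizer_eq_top_iff.1 (Subgroup.index_eq_one.1 h1)
    rcases (inferInstance : H.Normal).eq_bot_or_eq_top with rfl | rfl
    · rw [Subgroup.index_bot, card_psl_eleven hF] at hi; omega
    · rw [Subgroup.index_top] at hi; omega
  · refine (Subgroup.eq_of_le_of_card_ge Subgroup.le_normalizer ?_).symm
    have e1 := H.card_mul_index
    have e2 := (Subgroup.normalizer (H : Set PSL(2, F))).card_mul_index
    rw [hi] at e1
    rw [h1] at e2
    omega

include hF in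
/-- The number of subgroups isomorphic to `A₅`. -/
theorem card_alt_subgroups :
    Nat.card {H : Subgroup PSL(2, F) // Nonempty (H ≃* alternatingGroup (Fin 5))} = 22 := by
  classical
  let T := {p : PSL(2, F) × PSL(2, F) // Tri p}
  have hgen : ∀ p : T, Nonempty (↥(Subgroup.closure {p.1.1, p.1.2}) ≃* alternatingGroup (Fin 5)) := by
    intro p
    let H := Subgroup.closure ({p.1.1, p.1.2} : Set PSL(2, F))
    let x' : H := ⟨p.1.1, Subgroup.subset_closure (Or.inl rfl)⟩
    let y' : H := ⟨p.1.2, Subgroup.subset_closure (Or.inr rfl)⟩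
    have : Nontrivial H := ⟨x', 1, fun e => p.2.1.2 (congrArg Subtype.val e)⟩
    have hg : Subgroup.closure ({x', y'} : Set H) = ⊤ := by
      apply Subgroup.map_injective H.subtype_injective
      rw [MonoidHom.map_closure, ← MonoidHom.range_eq_map, Subgroup.range_subtype, Set.image_pair]
      rfl
    exact (nonempty_equiv_alternating_five_of_relations (x := x') (y := y') (Subtype.ext p.2.1.1)
      (Subtype.ext p.2.2.1) (Subtype.ext p.2.2.2) hg).2
  let S := {H : Subgroup PSL(2, F) // Nonempty (H ≃* alternatingGroup (Fin 5))}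
  let c : T → S := fun p => ⟨_, hgen p⟩
  have hfib : ∀ H : S, Nat.card {p : T // c p = H} = 120 := by
    intro H
    obtain ⟨e⟩ := H.2
    rw [← card_tri_alt, ← card_tri_congr e]
    have hmem : ∀ p : {p : T // c p = H}, p.1.1.1 ∈ H.1 ∧ p.1.1.2 ∈ H.1 := fun p => by
      rw [← congrArg Subtype.val p.2]
      exact ⟨Subgroup.subset_closure (Or.inl rfl), Subgroup.subset_closure (Or.inr rfl)⟩
    refine Nat.card_congr
      { toFun := fun p => ⟨(⟨_, (hmem p).1⟩, ⟨_, (hmem p).2⟩), (tri_map H.1.subtype H.1.subtype_injective _).1 p.1.2⟩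
        invFun := fun q => ⟨⟨((q.1.1 : PSL(2, F)), (q.1.2 : PSL(2, F))),
          (tri_map H.1.subtype H.1.subtype_injective _).2 q.2⟩, Subtype.ext ?_⟩
        left_inv := fun p => rfl
        right_inv := fun q => rfl }
    refine Subgroup.eq_of_le_of_card_ge ((Subgroup.closure_le _).2 ?_) ?_
    · rintro x (rfl | rfl)
      · exact q.1.1.2
      · exact q.1.2.2
    · obtain ⟨e'⟩ := hgen ⟨((q.1.1 : PSL(2, F)), (q.1.2 : PSL(2, F))),
        (tri_map H.1.subtype H.1.subtype_injective _).2 q.2⟩
      show Nat.card ↥H.1 ≤ Nat.card _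
      rw [Nat.card_congr e.toEquiv, Nat.card_congr e'.toEquiv]
  haveI : Fintype S := Fintype.ofFinite S
  have hsum := Nat.card_congr (Equiv.sigmaFiberEquiv c)
  rw [Nat.card_sigma, Finset.sum_congr rfl (fun H _ => hfib H), Finset.sum_const, Finset.card_univ,
    smul_eq_mul, (card_tri hF : Nat.card T = 2640)] at hsum
  rw [Nat.card_eq_fintype_card]
  show Fintype.card S = 22
  omega

include hF in
/-- Two classes of subgroups isomorphic to `A₅`. -/
theorem two_classes : ∃ H K : Subgroup PSL(2, F), Nonempty (H ≃* alternatingGroup (Fin 5)) ∧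
    Nonempty (K ≃* alternatingGroup (Fin 5)) ∧ (∀ g : PSL(2, F), MulAut.conj g • H ≠ K) ∧
    ∀ L : Subgroup PSL(2, F), Nonempty (L ≃* alternatingGroup (Fin 5)) →
      ∃ g : PSL(2, F), MulAut.conj g • L = H ∨ MulAut.conj g • L = K := by
  classical
  obtain ⟨H, -, hH⟩ := exists_alt_five hF (by norm_num)
  let orb : Subgroup PSL(2, F) → Finset (Subgroup PSL(2, F)) := fun L =>
    Set.toFinset (Set.range fun x : PSL(2, F) => L.map (MulAut.conj x).toMonoidHom)
  haveI : Fintype (Subgroup PSL(2, F)) := Fintype.ofFinite _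
  have horb : ∀ L : Subgroup PSL(2, F), Nonempty (L ≃* alternatingGroup (Fin 5)) → (orb L).card = 11 := by
    intro L hL
    have h := card_conjugates L
    rw [normalizer_eq hF hL, index_eq hF hL] at h
    rw [← h, Nat.card_eq_fintype_card, Set.toFinset_card]
  have hmem : ∀ L M, M ∈ orb L ↔ ∃ g : PSL(2, F), MulAut.conj g • L = M := fun L M => by
    simp only [orb, Set.mem_toFinset, Set.mem_range]
    exact exists_congr fun g => Iff.rfl
  have hconj : ∀ L M : Subgroup PSL(2, F), Nonempty (L ≃* alternatingGroup (Fin 5)) → M ∈ orb L →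
      Nonempty (M ≃* alternatingGroup (Fin 5)) := by
    intro L M ⟨e⟩ hM
    obtain ⟨g, rfl⟩ := (hmem L M).1 hM
    exact ⟨(Subgroup.equivSMul (MulAut.conj g) L).symm.trans e⟩
  let all : Finset (Subgroup PSL(2, F)) :=
    Finset.univ.filter fun L => Nonempty (L ≃* alternatingGroup (Fin 5))
  have hall : all.card = 22 := by
    rw [← card_alt_subgroups hF, Nat.card_eq_fintype_card, Fintype.card_subtype]
  obtain ⟨K, hK, hKn⟩ : ∃ K ∈ all, K ∉ orb H := by
    by_contra hcon
    push Not at hcon
    have := Finset.card_le_card (show all ⊆ orb H from hcon)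
    rw [hall, horb H hH] at this
    omega
  have hKA : Nonempty (K ≃* alternatingGroup (Fin 5)) := (Finset.mem_filter.1 hK).2
  refine ⟨H, K, hH, hKA, fun g hg => hKn ((hmem H K).2 ⟨g, hg⟩), fun L hL => ?_⟩
  have hdisj : Disjoint (orb H) (orb K) := by
    rw [Finset.disjoint_left]
    intro M h1 h2
    obtain ⟨g, rfl⟩ := (hmem H M).1 h1
    obtain ⟨g', hg'⟩ := (hmem K _).1 h2
    exact hKn ((hmem H K).2 ⟨g'⁻¹ * g, by rw [map_mul, mul_smul, map_inv, ← hg', inv_smul_smul]⟩)
  have hsub : orb H ∪ orb K ⊆ all := fun M hM => Finset.mem_filter.2 ⟨Finset.mem_univ M, by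
    rcases Finset.mem_union.1 hM with h | h
    · exact hconj H M hH h
    · exact hconj K M hKA h⟩
  have heq := Finset.eq_of_subset_of_card_le hsub (by
    rw [Finset.card_union_of_disjoint hdisj, horb H hH, horb K hKA, hall])
  have hLm : L ∈ orb H ∪ orb K := heq ▸ Finset.mem_filter.2 ⟨Finset.mem_univ L, hL⟩
  rcases Finset.mem_union.1 hLm with h | h
  · obtain ⟨g, rfl⟩ := (hmem H L).1 h
    exact ⟨g⁻¹, Or.inl (by rw [map_inv, inv_smul_smul])⟩
  · obtain ⟨g, rfl⟩ := (hmem K L).1 h
    exact ⟨g⁻¹, Or.inr (by rw [map_inv, inv_smul_smul])⟩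

include hF in
/-- The degree eleven action is two-transitive. -/
theorem two_transitive {H : Subgroup PSL(2, F)} (hH : Nonempty (H ≃* alternatingGroup (Fin 5))) :
    MulAction.IsMultiplyPretransitive PSL(2, F) (PSL(2, F) ⧸ H) 2 := by
  classical
  haveI := isSimple hF
  have hi := index_eq hF hH
  haveI : Fintype (PSL(2, F) ⧸ H) := Fintype.ofFinite _
  have hcard : Fintype.card (PSL(2, F) ⧸ H) = 11 := by
    rw [← Nat.card_eq_fintype_card]; exact hi
  let f := MulAction.toPermHom PSL(2, F) (PSL(2, F) ⧸ H)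
  have hf : Function.Injective f := by
    rw [← MonoidHom.ker_eq_bot_iff]
    rcases f.normal_ker.eq_bot_or_eq_top with h | h
    · exact h
    · exfalso
      have htop : H = ⊤ := by
        refine (Subgroup.eq_top_iff' H).2 fun x => ?_
        have hx : f x = 1 := MonoidHom.mem_ker.1 (h ▸ Subgroup.mem_top x)
        have hq := Equiv.congr_fun hx (QuotientGroup.mk 1)
        have hq' : (QuotientGroup.mk (x * 1) : PSL(2, F) ⧸ H) = QuotientGroup.mk 1 := hq
        simpa using QuotientGroup.eq.1 hq'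
      rw [htop, Subgroup.index_top] at hi
      omega
  have hns : ¬ Group.IsSolvable ↥f.range := by
    intro h
    obtain ⟨e⟩ := hH
    haveI := h
    haveI : Group.IsSolvable PSL(2, F) :=
      solvable_of_solvable_injective (f := f.rangeRestrict) fun a b hab => hf (congrArg Subtype.val hab)
    have hs : Group.IsSolvable (alternatingGroup (Fin 5)) :=
      solvable_of_solvable_injective (f := H.subtype.comp e.symm.toMonoidHom)
        (H.subtype_injective.comp e.symm.injective)
    haveI := hs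
    haveI : IsSimpleGroup (alternatingGroup (Fin 5)) := alternatingGroup.isSimpleGroup (by simp)
    exact (Group.IsSolvable.commutator_lt_top_of_nontrivial (alternatingGroup (Fin 5))).ne
      (_root_.commutator_alternatingGroup_eq_top (by simp))
  haveI : MulAction.IsPretransitive ↥f.range (PSL(2, F) ⧸ H) := ⟨fun a b => by
    obtain ⟨g, hg⟩ := MulAction.exists_smul_eq PSL(2, F) a b
    exact ⟨⟨f g, g, rfl⟩, hg⟩⟩
  haveI : Fact (Nat.Prime 11) := ⟨by norm_num⟩
  obtain ⟨σ, hσ⟩ := exists_prime_orderOf_dvd_card' (G := ↥f.range) 11 (by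
    rw [← Nat.card_congr (MonoidHom.ofInjective hf).toEquiv, card_psl_eleven hF]; norm_num)
  obtain ⟨e, he⟩ := H36.exists_zmod_numbering hcard (σ := (σ : Equiv.Perm _)) (by rw [Subgroup.orderOf_coe, hσ])
  have h2 := (H36.affine_or_two_transitive (G := f.range) hcard σ.2 e he).resolve_left fun haff =>
    hns (H36.isSolvable_of_affine e f.range haff)
  rw [MulAction.is_two_pretransitive_iff]
  intro a b c d hab hcd
  obtain ⟨⟨_, g, rfl⟩, h1, h2'⟩ := MulAction.is_two_pretransitive_iff.1 h2 hab hcd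
  exact ⟨g, h1, h2'⟩

end Cfsg.Agent.H63.PSLEleven
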